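import Mathlib
import Cfsg.Agent.Lib.Helper8.WallInd
import Cfsg.Agent.Lib.Helper14.CartanDieudonne

/-!
# Class fusion of semisimple elements of odd order in orthogonal groups: the interface

Interface of the team project for S2720 / S2721.  `Std Q N A`: `A` is an isometry of the
quadratic form `Q` (non-degenerate polar form, `2 ≠ 0`) with `A ^ N = 1`, `N` odd and invertible
in the field.  The packages are stated as `Prop`s; each is proved in its own file.
-/

set_option autoImplicit false

namespace Cfsg.Agent.Lib.Helper8.OFus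

open Polynomial Module
open Cfsg.Agent.Lib.Helper8.WallBasic Cfsg.Agent.Lib.Helper8.WallForm
open Cfsg.Agent.Lib.Helper14 (reflLin)

universe u

/-- The standing hypotheses: `A` is an isometry of `Q` of odd order dividing `N`, `N ≠ 0` in
`F`, `2 ≠ 0` in `F`, the polar form of `Q` is non-degenerate. -/
structure Std {F : Type u} [Field F] {V : Type u} [AddCommGroup V] [Module F V]
    (Q : QuadraticForm F V) (N : ℕ) (A : V →ₗ[F] V) : Prop where
  two : (2 : F) ≠ 0
  nondeg : (QuadraticMap.polarBilin Q).Nondegenerate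
  odd : Odd N
  ne : (N : F) ≠ 0
  pow : A ^ N = 1
  isom : ∀ v, Q (A v) = Q v

theorem Std.setup {F : Type u} [Field F] {V : Type u} [AddCommGroup V] [Module F V]
    {Q : QuadraticForm F V} {N : ℕ} {A : V →ₗ[F] V} (S : Std Q N A) :
    Setup (QuadraticMap.polarBilin Q) N A where
  symm x y := by
    show QuadraticMap.polar Q x y = QuadraticMap.polar Q y x
    exact QuadraticMap.polar_comm Q x y
  odd := S.odd
  pow := S.pow
  isom x y := by
    show QuadraticMap.polar Q (A x) (A y) = QuadraticMap.polar Q x y
    unfold QuadraticMap.polar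
    rw [← map_add, S.isom, S.isom, S.isom]
  ne := S.ne

/-- The common conclusion of the spinor packages: an even product of reflections commuting with
`A` whose spinor norm (the product of the values of `Q` at the reflection vectors) is a
non-square. -/
def HasOddRefl {F : Type u} [Field F] {V : Type u} [AddCommGroup V] [Module F V]
    (Q : QuadraticForm F V) (A : V →ₗ[F] V) : Prop :=
  ∃ l : List V, (∀ u ∈ l, Q u ≠ 0) ∧ Even l.length ∧ ¬ IsSquare (l.map Q).prod ∧
    ∀ v, (l.map (reflLin Q)).prod (A v) = A ((l.map (reflLin Q)).prod v)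

/-- **Package DET0.**  If `A` has no non-zero fixed vector, every similarity `t` of `Q`
(multiplier `μ ≠ 0`) commuting with `A` has determinant `μ ^ (dim V / 2)`.
(Proof: `ω(x,y) = β((A - A⁻¹) x, y)` is a non-degenerate alternating form with
`ω(t x, t y) = μ ω(x, y)`; symplectic similitudes have `det = μ ^ (dim / 2)`.) -/
def PkgDet0 : Prop :=
  ∀ {F : Type u} [Field F] [Finite F] {V : Type u} [AddCommGroup V] [Module F V]
    [FiniteDimensional F V] (Q : QuadraticForm F V) (N : ℕ) (A : V →ₗ[F] V),
    Std Q N A → (∀ v, A v = v → v = 0) →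
    ∀ (t : V →ₗ[F] V) (μ : F), μ ≠ 0 → (∀ v, Q (t v) = μ * Q v) → (∀ v, t (A v) = A (t v)) →
      LinearMap.det t = μ ^ (finrank F V / 2)

/-- **Package M.**  Given any similarity `s₀` of `Q` with multiplier `μ`, there is a similarity
`t` with the same multiplier commuting with `A` and with `det t = μ ^ (dim V / 2)`
(`dim V` even).  (Proof: `conj_core` gives an isometry `γ` with `γ A = (s₀ A s₀⁻¹) γ`;
`t₀ = γ⁻¹ s₀` commutes with `A`; `det t₀ = ± μ ^ (dim / 2)`; if `A` has no fixed vector the sign
is `+` by DET0, otherwise multiply by a reflection along a non-singular fixed vector.) -/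
def PkgM : Prop :=
  ∀ {F : Type u} [Field F] [Finite F] {V : Type u} [AddCommGroup V] [Module F V]
    [FiniteDimensional F V] (Q : QuadraticForm F V) (N : ℕ) (A : V →ₗ[F] V),
    Std Q N A → Even (finrank F V) →
    ∀ (s₀ : V ≃ₗ[F] V) (μ : F), μ ≠ 0 → (∀ v, Q (s₀ v) = μ * Q v) →
      ∃ t : V ≃ₗ[F] V, (∀ v, Q (t v) = μ * Q v) ∧ (∀ v, t (A v) = A (t v)) ∧
        LinearMap.det (t : V →ₗ[F] V) = μ ^ (finrank F V / 2)

/-- **Package NORM.**  On an irreducible `A`-invariant subspace `W` (finite field), the
determinants of the restrictions of the polynomials in `A` take every value.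
(Proof: `K = F[X] / ann A W` is a finite field, `W ≅ K` as `F[X]`-modules, the determinant of
`p(A)|W` is the norm of the class of `p`, and the norm of finite fields is surjective.) -/
def PkgNorm : Prop :=
  ∀ {F : Type u} [Field F] [Finite F] {V : Type u} [AddCommGroup V] [Module F V]
    [FiniteDimensional F V] (A : V →ₗ[F] V) (W : Submodule F V) (hW : Irr A W) (a : F),
    ∃ p : F[X], LinearMap.det ((aeval A p).restrict (inv_aeval hW.2.1 p)) = a

/-- **Package SPIN.**  Let `J` be an isometric involution, `b` an invertible linear map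
(inverse `b'`) whose adjoint is `b̄ = J b J` and which commutes with `b̄`.  Then
`h = b b̄⁻¹ = b J b' J` is an isometry, the product `(b J b') J` of two isometric involutions,
and it is an even product of reflections whose spinor norm is the class of the determinant of
`b̄ b = J b J b` on the `(-1)`-eigenspace of `J`; so if that determinant is a non-square, the
spinor norm is a non-square. -/
def PkgSpin : Prop :=
  ∀ {F : Type u} [Field F] [Finite F] {V : Type u} [AddCommGroup V] [Module F V]
    [FiniteDimensional F V] (Q : QuadraticForm F V), (2 : F) ≠ 0 →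
    (QuadraticMap.polarBilin Q).Nondegenerate →
    ∀ (J b b' : V →ₗ[F] V), (∀ v, J (J v) = v) → (∀ v, Q (J v) = Q v) →
      (∀ v, b (b' v) = v) → (∀ v, b' (b v) = v) →
      (∀ x y, QuadraticMap.polarBilin Q (b x) y = QuadraticMap.polarBilin Q x (J (b (J y)))) →
      (∀ v, b (J (b (J v))) = J (b (J (b v)))) →
      ∀ hE : ∀ x ∈ LinearMap.ker (J + 1), (J ∘ₗ b ∘ₗ J ∘ₗ b) x ∈ LinearMap.ker (J + 1),
        ¬ IsSquare (LinearMap.det ((J ∘ₗ b ∘ₗ J ∘ₗ b).restrict hE)) →
        ∃ l : List V, (∀ u ∈ l, Q u ≠ 0) ∧ Even l.length ∧ ¬ IsSquare (l.map Q).prod ∧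
          (l.map (reflLin Q)).prod = b ∘ₗ J ∘ₗ b' ∘ₗ J

/-- **Package SD.**  The irreducible (self-dual) case: the whole space is `A`-irreducible and
`A` has no non-zero fixed vector. -/
def PkgSd : Prop :=
  ∀ {F : Type u} [Field F] [Finite F] {V : Type u} [AddCommGroup V] [Module F V]
    [FiniteDimensional F V] (Q : QuadraticForm F V) (N : ℕ) (A : V →ₗ[F] V),
    Std Q N A → Irr A ⊤ → (∀ v, A v = v → v = 0) → HasOddRefl Q A

/-- **Package HYP.**  The hyperbolic case: the space is the direct sum of two totally isotropic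
irreducible `A`-invariant subspaces `U`, `U₁`, where `U₁` is the dual of `U`
(`ann A U₁ = ann A⁻¹ U`) and `U` is not self-dual. -/
def PkgHyp : Prop :=
  ∀ {F : Type u} [Field F] [Finite F] {V : Type u} [AddCommGroup V] [Module F V]
    [FiniteDimensional F V] (Q : QuadraticForm F V) (N : ℕ) (A : V →ₗ[F] V),
    Std Q N A → ∀ U U₁ : Submodule F V, Irr A U → Irr A U₁ →
    (∀ x ∈ U, ∀ y ∈ U, QuadraticMap.polarBilin Q x y = 0) →
    (∀ x ∈ U₁, ∀ y ∈ U₁, QuadraticMap.polarBilin Q x y = 0) →
    U ⊔ U₁ = ⊤ → Disjoint U U₁ → ann A U₁ = ann (A ^ (N - 1)) U →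
    ann A U ≠ ann (A ^ (N - 1)) U → HasOddRefl Q A

/-- **Package S.**  The general statement: if `A ≠ 1` there is an even product of reflections
commuting with `A` with non-square spinor norm (an element of `C_SO(A)` outside `Ω`). -/
def PkgS : Prop :=
  ∀ {F : Type u} [Field F] [Finite F] {V : Type u} [AddCommGroup V] [Module F V]
    [FiniteDimensional F V] (Q : QuadraticForm F V) (N : ℕ) (A : V →ₗ[F] V),
    Std Q N A → A ≠ 1 → HasOddRefl Q A

end Cfsg.Agent.Lib.Helper8.OFus
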