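import Mathlib
import Cfsg.Prelude.Def_LieTypeDatum
import Cfsg.Agent.Lib.Helper8.OFus.Defs
import Cfsg.Agent.Lib.Helper44.InnDiag
import Cfsg.Agent.Lib.Helper14.Spinor2

/-!
# Class fusion of semisimple elements of odd order in `PΩ±`: the group-theoretic assembly

From the two linear-algebra packages `PkgM` (a similarity with prescribed multiplier and
determinant centralising a given isometry of odd order) and `PkgS` (an element of `C_SO(g)`
outside `Ω`), deduce that `Inn`-classes, `PSO`-classes and `Inndiag`-classes of the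
automorphisms of odd prime order induced by similarities coincide, and that `PO`-classes and
`PGO`-classes coincide.
-/

set_option autoImplicit false

namespace Cfsg.Agent.Lib.Helper8.OFus

open Matrix Module Subgroup
open Cfsg.Agent.Lib.Helper14 Cfsg.Agent.Lib.Helper44

universe u

/-- If the centraliser of `x` covers `H` modulo `K`, then `K`-conjugacy and `H`-conjugacy of
`x` coincide. -/
theorem conj_iff_of_cover {X : Type*} [Group X] (K H : Subgroup X) (hKH : K ≤ H) (x : X)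
    (hcov : ∀ h ∈ H, ∃ c : X, c * x = x * c ∧ h * c ∈ K) (y : X) :
    Cfsg.IsConjUnder K x y ↔ Cfsg.IsConjUnder H x y := by
  constructor
  · rintro ⟨h, hh, e⟩
    exact ⟨h, hKH hh, e⟩
  · rintro ⟨h, hh, e⟩
    obtain ⟨c, hc, hk⟩ := hcov h hh
    refine ⟨h * c, hk, ?_⟩
    rw [e, _root_.mul_inv_rev, mul_assoc h c x, hc]
    group

section mat

variable {ι : Type} [Fintype ι] [DecidableEq ι] {F : Type u} [Field F]

/-- A matrix that is a similarity of `Q` with non-zero multiplier, as an element of the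
similarity group. -/
theorem exists_sim (Q : QuadraticForm F (ι → F))
    (hQ : (QuadraticMap.polarBilin Q).Nondegenerate) (M : Matrix ι ι F) (c : F) (hc : c ≠ 0)
    (hM : ∀ v, Q (M *ᵥ v) = c * Q v) :
    ∃ g : ↥(Cfsg.Geo.quadSimilarityGroup (F := F) ⇑Q), ((g : GL ι F) : Matrix ι ι F) = M := by
  have hdet : M.det ≠ 0 := by
    have h := sim_det_sq Q hQ M c hM
    intro h0
    rw [h0] at h
    exact pow_ne_zero _ hc (by rw [← h]; ring)
  exact ⟨⟨Matrix.GeneralLinearGroup.mkOfDetNeZero M hdet, ⟨Units.mk0 c hc, hM⟩⟩, rfl⟩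

theorem quad_pow_mulVec (Q : (ι → F) → F) (M : Matrix ι ι F) (c : F)
    (hM : ∀ v, Q (M *ᵥ v) = c * Q v) (n : ℕ) (v : ι → F) :
    Q ((M ^ n) *ᵥ v) = c ^ n * Q v := by
  induction n generalizing v with
  | zero => simp
  | succ n ih =>
    rw [pow_succ, ← Matrix.mulVec_mulVec, ih, hM, pow_succ]
    ring

theorem quad_smul_mulVec (Q : QuadraticForm F (ι → F)) (M : Matrix ι ι F) (c a : F)
    (hM : ∀ v, Q (M *ᵥ v) = c * Q v) (v : ι → F) :
    Q ((a • M) *ᵥ v) = a ^ 2 * c * Q v := by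
  rw [Matrix.smul_mulVec, QuadraticMap.map_smul, hM, smul_eq_mul]
  ring

/-- Lifting an automorphism of odd order `r` induced by a similarity to an isometry `G` with
`G ^ r = 1`. -/
theorem exists_isom_lift [Fintype F] (Q : QuadraticForm F (ι → F))
    (hQ : (QuadraticMap.polarBilin Q).Nondegenerate)
    (E : Submodule F (ι → F)) (hE : 3 ≤ finrank F E) (hE0 : ∀ x ∈ E, Q x = 0)
    (hne : ∃ v, Q v ≠ 0)
    (g₀ : ↥(Cfsg.Geo.quadSimilarityGroup (F := F) ⇑Q)) {r : ℕ} (hro : Odd r)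
    (hpow : simAut ⇑Q g₀ ^ r = 1) :
    ∃ g : ↥(Cfsg.isometryGroup F ⇑Q),
      simAut ⇑Q ⟨(g : GL ι F), isometryGroup_le_sim ⇑Q g.2⟩ = simAut ⇑Q g₀ ∧
      ((g : GL ι F) : Matrix ι ι F) ^ r = 1 := by
  obtain ⟨v₀, hv₀⟩ := hne
  rw [← map_pow] at hpow
  obtain ⟨lam, hlam0, hlam⟩ := scalar_of_simAut_eq_one Q hQ E hE hE0 _ hpow
  have hlam' : ((g₀ : GL ι F) : Matrix ι ι F) ^ r = lam • (1 : Matrix ι ι F) := by
    rw [← hlam, Subgroup.coe_pow, Units.val_pow_eq_pow_val]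
  obtain ⟨G₀, hG₀⟩ : ∃ G₀ : Matrix ι ι F, G₀ = ((g₀ : GL ι F) : Matrix ι ι F) := ⟨_, rfl⟩
  obtain ⟨μ₀, hμ₀⟩ : ∃ μ₀ : F, μ₀ = (simMult ⇑Q g₀ : F) := ⟨_, rfl⟩
  have hμ₀0 : μ₀ ≠ 0 := by rw [hμ₀]; exact (simMult ⇑Q g₀).ne_zero
  have hsim : ∀ v, Q (G₀ *ᵥ v) = μ₀ * Q v := by
    intro v
    rw [hG₀, hμ₀]
    exact simMult_spec ⇑Q g₀ v
  rw [← hG₀] at hlam'
  have hμr : μ₀ ^ r = lam ^ 2 := by
    have h1 := quad_pow_mulVec (⇑Q) G₀ μ₀ hsim r v₀
    rw [hlam', Matrix.smul_mulVec, Matrix.one_mulVec, QuadraticMap.map_smul, smul_eq_mul] at h1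
    have h2 : (μ₀ ^ r - lam ^ 2) * Q v₀ = 0 := by linear_combination -h1
    rcases mul_eq_zero.mp h2 with h3 | h3
    · exact sub_eq_zero.mp h3
    · exact absurd h3 hv₀
  obtain ⟨j, rfl⟩ := hro
  obtain ⟨ν, hν⟩ : ∃ ν : F, ν = lam / μ₀ ^ j := ⟨_, rfl⟩
  have hν0 : ν ≠ 0 := by
    rw [hν]
    exact div_ne_zero hlam0 (pow_ne_zero _ hμ₀0)
  have hν2 : ν ^ 2 = μ₀ := by
    rw [hν, div_pow, ← hμr]
    field_simp
    ring
  obtain ⟨lam₁, hlam₁⟩ : ∃ lam₁ : F, lam₁ = (ν⁻¹) ^ (2 * j + 1) * lam := ⟨_, rfl⟩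
  have hG₁ : ∀ v, Q ((ν⁻¹ • G₀) *ᵥ v) = Q v := by
    intro v
    rw [quad_smul_mulVec Q G₀ μ₀ ν⁻¹ hsim, ← hν2]
    field_simp
  have hG₁pow : (ν⁻¹ • G₀) ^ (2 * j + 1) = lam₁ • (1 : Matrix ι ι F) := by
    rw [smul_pow, hlam', smul_smul, hlam₁]
  have hlam₁sq : lam₁ ^ 2 = 1 := by
    have h1 := quad_pow_mulVec (⇑Q) (ν⁻¹ • G₀) 1 (fun v => by rw [hG₁ v, one_mul]) (2 * j + 1) v₀
    rw [hG₁pow, Matrix.smul_mulVec, Matrix.one_mulVec, QuadraticMap.map_smul, smul_eq_mul,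
      one_pow, one_mul] at h1
    have h2 : (lam₁ ^ 2 - 1) * Q v₀ = 0 := by linear_combination h1
    rcases mul_eq_zero.mp h2 with h3 | h3
    · exact sub_eq_zero.mp h3
    · exact absurd h3 hv₀
  have hG : ∀ v, Q ((lam₁ • (ν⁻¹ • G₀)) *ᵥ v) = Q v := by
    intro v
    rw [quad_smul_mulVec Q (ν⁻¹ • G₀) 1 lam₁ (fun v => by rw [hG₁ v, one_mul]), hlam₁sq]
    ring
  refine ⟨mkIsom Q hQ (lam₁ • (ν⁻¹ • G₀)) hG, ?_, ?_⟩
  · apply simAut_eq_of_smul ⇑Q _ _ (lam₁ * ν⁻¹)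
    show lam₁ • (ν⁻¹ • G₀) = (lam₁ * ν⁻¹) • ((g₀ : GL ι F) : Matrix ι ι F)
    rw [smul_smul, hG₀]
  · show (lam₁ • (ν⁻¹ • G₀)) ^ (2 * j + 1) = 1
    rw [smul_pow, hG₁pow, smul_smul]
    have h3 : lam₁ ^ (2 * j + 1) * lam₁ = 1 := by
      rw [← pow_succ, show 2 * j + 1 + 1 = 2 * (j + 1) by ring, pow_mul, hlam₁sq, one_pow]
    rw [h3, one_smul]

theorem toLin_pow_apply (G : Matrix ι ι F) (n : ℕ) (v : ι → F) :
    ((Matrix.toLin' G) ^ n) v = (G ^ n) *ᵥ v := by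
  induction n generalizing v with
  | zero => simp
  | succ n ih =>
    rw [pow_succ, Module.End.mul_apply, Matrix.toLin'_apply, ih, pow_succ, Matrix.mulVec_mulVec]

/-- A similarity with square multiplier is a scalar multiple of an isometry. -/
theorem exists_isom_of_sq (Q : QuadraticForm F (ι → F))
    (hQ : (QuadraticMap.polarBilin Q).Nondegenerate)
    (s : ↥(Cfsg.Geo.quadSimilarityGroup (F := F) ⇑Q)) (hsq : IsSquare (simMult ⇑Q s : F)) :
    ∃ (s' : ↥(Cfsg.isometryGroup F ⇑Q)) (ν : F), ν ≠ 0 ∧ ν ^ 2 = (simMult ⇑Q s : F) ∧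
      ((s : GL ι F) : Matrix ι ι F) = ν • ((s' : GL ι F) : Matrix ι ι F) ∧
      simAut ⇑Q s = isomAut ⇑Q s' := by
  obtain ⟨ν, hν⟩ := hsq
  have hμ0 : (simMult ⇑Q s : F) ≠ 0 := (simMult ⇑Q s).ne_zero
  have hν0 : ν ≠ 0 := by
    intro h
    rw [h, mul_zero] at hν
    exact hμ0 hν
  have hM : ∀ v, Q ((ν⁻¹ • ((s : GL ι F) : Matrix ι ι F)) *ᵥ v) = Q v := by
    intro v
    rw [quad_smul_mulVec Q _ (simMult ⇑Q s : F) ν⁻¹ (simMult_spec ⇑Q s), hν]
    field_simp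
  have hmat : ((s : GL ι F) : Matrix ι ι F) =
      ν • (((mkIsom Q hQ _ hM : ↥(Cfsg.isometryGroup F ⇑Q)) : GL ι F) : Matrix ι ι F) := by
    rw [mkIsom_coe, smul_smul, mul_inv_cancel₀ hν0, one_smul]
  refine ⟨mkIsom Q hQ _ hM, ν, hν0, by rw [hν]; ring, hmat, ?_⟩
  rw [← simAut_incl]
  exact simAut_eq_of_smul ⇑Q _ _ ν hmat

theorem isomAut_mem_poAut (Qf : (ι → F) → F) (h : ↥(Cfsg.isometryGroup F Qf)) :
    isomAut Qf h ∈ Cfsg.poAut F Qf := by
  apply Subgroup.subset_closure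
  refine ⟨(h : GL ι F), h.2, ?_⟩
  intro s s' hs'
  rw [isomAut_mk]
  congr 1
  apply Subtype.ext
  apply isom_ext
  rw [hs', conjNormal_coe, map_refl_eq]

theorem poAut_le_pgoAut (Qf : (ι → F) → F) : Cfsg.poAut F Qf ≤ Cfsg.pgoAut F Qf := by
  apply Subgroup.closure_mono
  rintro β ⟨g, hg, hi⟩
  exact ⟨g, isometryGroup_le_sim Qf hg, hi⟩

end mat

section main

variable {ι : Type} [Fintype ι] [DecidableEq ι] {F : Type u} [Field F] [Fintype F]

set_option maxHeartbeats 1600000 in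
/-- The generic fusion theorem: for an automorphism `x` of odd prime order `r` (`r ≠ 0` in `F`)
induced by a similarity, the centraliser of `x` covers `Inndiag / Inn` and `PGO / PO`. -/
theorem fusion_generic (hM : PkgM.{u}) (hS : PkgS.{u}) (h2 : (2 : F) ≠ 0)
    (Q : QuadraticForm F (ι → F))
    (hQ : (QuadraticMap.polarBilin Q).Nondegenerate) (Qf : (ι → F) → F) (hQf : ⇑Q = Qf)
    (E : Submodule F (ι → F)) (hE : 3 ≤ finrank F E) (hE0 : ∀ x ∈ E, Q x = 0) (k : ℕ)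
    (hk : Fintype.card ι = 2 * k) (P : Matrix ι ι F → Prop)
    (hP : ∀ (g : GL ι F) (c : F), c ≠ 0 → (∀ x, Qf ((g : Matrix ι ι F) *ᵥ x) = c * Qf x) →
      (P (g : Matrix ι ι F) ↔ (g : Matrix ι ι F).det = c ^ k))
    (D : Subgroup (MulAut (Cfsg.POmega F Qf)))
    (hD : D = Subgroup.closure {β : MulAut (Cfsg.POmega F Qf) | ∃ g : GL ι F,
        g ∈ Cfsg.Geo.quadSimilarityGroup (F := F) Qf ∧ P (g : Matrix ι ι F) ∧
        Cfsg.IsInducedBySemilinearPOmega Qf g (RingEquiv.refl F) β})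
    (g₂ : Matrix ι ι F) (c : F) (hc : ¬ IsSquare c)
    (hg₂ : ∀ v, Qf (g₂ *ᵥ v) = c * Qf v)
    (x : MulAut (Cfsg.POmega F Qf)) (hx : x ∈ Cfsg.pgoAut F Qf) {r : ℕ} (hr : r.Prime)
    (hro : Odd r) (hrF : (r : F) ≠ 0) (hxr : orderOf x = r) :
    (∀ y : MulAut (Cfsg.POmega F Qf),
      (Cfsg.IsConjUnder (Cfsg.Inn (Cfsg.POmega F Qf)) x y ↔ Cfsg.IsConjUnder D x y) ∧
      (Cfsg.IsConjUnder (Cfsg.psoAut F Qf) x y ↔ Cfsg.IsConjUnder D x y)) ∧
    (∀ y : MulAut (Cfsg.POmega F Qf),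
      Cfsg.IsConjUnder (Cfsg.poAut F Qf) x y ↔ Cfsg.IsConjUnder (Cfsg.pgoAut F Qf) x y) := by
  subst hQf
  have hdim : 6 ≤ finrank F (ι → F) := by
    have := two_mul_finrank_le_of_ts hQ hE0
    omega
  have hne : ∃ v, Q v ≠ 0 := exists_quad_ne_zero Q hQ (by omega)
  have hDeq : D = diagAut h2 Q hQ hne k hk :=
    hD.trans (closure_pred_eq_diagAut h2 Q hQ hne k hk P hP)
  subst hDeq
  have hc0 : c ≠ 0 := fun h => hc ⟨0, by simp [h]⟩
  -- lift `x` to an isometry of order `r`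
  rw [pgoAut_eq_range] at hx
  obtain ⟨g₀, rfl⟩ := hx
  have hpow : simAut ⇑Q g₀ ^ r = 1 := by
    rw [← hxr]
    exact pow_orderOf_eq_one _
  obtain ⟨g, hgx, hgr⟩ := exists_isom_lift Q hQ E hE hE0 hne g₀ hro hpow
  obtain ⟨G, hG⟩ : ∃ G : Matrix ι ι F, G = ((g : GL ι F) : Matrix ι ι F) := ⟨_, rfl⟩
  rw [← hG] at hgr
  have hGQ : ∀ v, Q (G *ᵥ v) = Q v := by
    rw [hG]
    exact isom_preserves g
  have hG1 : G ≠ 1 := by
    intro h1
    have h3 : simAut ⇑Q g₀ = 1 := by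
      rw [← hgx]
      apply simAut_eq_one_of_scalar ⇑Q _ 1
      show ((g : GL ι F) : Matrix ι ι F) = _
      rw [← hG, h1, one_smul]
    rw [h3, orderOf_one] at hxr
    exact hr.one_lt.ne hxr
  obtain ⟨A, hA⟩ : ∃ A : (ι → F) →ₗ[F] (ι → F), A = Matrix.toLin' G := ⟨_, rfl⟩
  have hAapp : ∀ v, A v = G *ᵥ v := by
    intro v
    rw [hA, Matrix.toLin'_apply]
  have hStd : Std Q r A :=
    { two := h2
      nondeg := hQ
      odd := hro
      ne := hrF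
      pow := by
        apply LinearMap.ext
        intro v
        rw [hA, toLin_pow_apply, hgr, Matrix.one_mulVec, Module.End.one_apply]
      isom := fun v => by rw [hAapp]; exact hGQ v }
  have hA1 : A ≠ 1 := by
    intro h1
    apply hG1
    apply Matrix.toLin'.injective
    rw [← hA, h1, Matrix.toLin'_one]
    rfl
  -- package S: an element of `C_SO(g)` outside `Ω`
  obtain ⟨l, hl, hlev, hlsq, hlcomm⟩ := hS Q r A hStd hA1
  obtain ⟨T₂, hT₂⟩ : ∃ T₂ : ↥(Cfsg.isometryGroup F ⇑Q), T₂ = prodElt Q hQ l hl := ⟨_, rfl⟩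
  have hT₂mat : ((T₂ : GL ι F) : Matrix ι ι F) = (l.map (Cfsg.reflectionMatrix ⇑Q)).prod := by
    rw [hT₂]
    rfl
  have hT₂comm : ((T₂ : GL ι F) : Matrix ι ι F) * G = G * ((T₂ : GL ι F) : Matrix ι ι F) := by
    rw [hT₂mat]
    apply Matrix.toLin'.injective
    apply LinearMap.ext
    intro v
    rw [Matrix.toLin'_apply, Matrix.toLin'_apply, ← Matrix.mulVec_mulVec, ← Matrix.mulVec_mulVec]
    have h1 := hlcomm v
    rw [← prod_reflectionMatrix_mulVecLin, Matrix.mulVecLin_apply, Matrix.mulVecLin_apply,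
      hAapp, hAapp] at h1
    exact h1
  -- package M: a similarity with non-square multiplier and `det = μ^k` centralising `g`
  have hfin : finrank F (ι → F) = 2 * k := by
    rw [Module.finrank_fintype_fun_eq_card, hk]
  obtain ⟨s₂, hs₂⟩ := exists_sim Q hQ g₂ c hc0 hg₂
  have hinv1 : (((s₂ : GL ι F)⁻¹ : GL ι F) : Matrix ι ι F) * ((s₂ : GL ι F) : Matrix ι ι F) = 1 := by
    rw [← Units.val_mul, inv_mul_cancel, Units.val_one]
  have hinv2 : ((s₂ : GL ι F) : Matrix ι ι F) * (((s₂ : GL ι F)⁻¹ : GL ι F) : Matrix ι ι F) = 1 := by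
    rw [← Units.val_mul, mul_inv_cancel, Units.val_one]
  obtain ⟨t, htQ, htA, htdet⟩ := hM Q r A hStd ⟨k, by rw [hfin]; ring⟩
    (Matrix.toLin'OfInv hinv1 hinv2) c hc0 (fun v => by
      show Q (Matrix.toLin' ((s₂ : GL ι F) : Matrix ι ι F) v) = c * Q v
      rw [Matrix.toLin'_apply, hs₂]
      exact hg₂ v)
  obtain ⟨T₁m, hT₁m⟩ : ∃ T : Matrix ι ι F,
      T = LinearMap.toMatrix' (t : (ι → F) →ₗ[F] (ι → F)) := ⟨_, rfl⟩
  have hT₁app : ∀ v, T₁m *ᵥ v = t v := by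
    intro v
    rw [hT₁m, ← Matrix.toLin'_apply, Matrix.toLin'_toMatrix']
    rfl
  have hT₁Q : ∀ v, Q (T₁m *ᵥ v) = c * Q v := fun v => by
    rw [hT₁app]
    exact htQ v
  have hT₁det : T₁m.det = c ^ k := by
    rw [hT₁m, LinearMap.det_toMatrix', htdet, hfin, Nat.mul_div_cancel_left k (by norm_num)]
  have hT₁comm : T₁m * G = G * T₁m := by
    apply Matrix.toLin'.injective
    apply LinearMap.ext
    intro v
    rw [Matrix.toLin'_apply, Matrix.toLin'_apply, ← Matrix.mulVec_mulVec, ← Matrix.mulVec_mulVec,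
      hT₁app, hT₁app, ← hAapp, ← hAapp]
    exact htA v
  obtain ⟨T₁, hT₁⟩ := exists_sim Q hQ T₁m c hc0 hT₁Q
  have hT₁mult : (simMult ⇑Q T₁ : F) = c := by
    apply simMult_unique ⇑Q hne
    rw [hT₁]
    exact hT₁Q
  have hT₁mem : T₁ ∈ detKer h2 Q hQ hne k hk := by
    rw [mem_detKer_iff, hT₁mult, hT₁]
    exact hT₁det
  -- commuting automorphisms
  obtain ⟨gS, hgS⟩ : ∃ gS : ↥(Cfsg.Geo.quadSimilarityGroup (F := F) ⇑Q),
      gS = ⟨(g : GL ι F), isometryGroup_le_sim ⇑Q g.2⟩ := ⟨_, rfl⟩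
  have hgSmat : ((gS : GL ι F) : Matrix ι ι F) = G := by rw [hgS, hG]
  have hxS : simAut ⇑Q g₀ = simAut ⇑Q gS := by
    rw [hgS]
    exact hgx.symm
  have hcomm_of : ∀ T : ↥(Cfsg.Geo.quadSimilarityGroup (F := F) ⇑Q),
      ((T : GL ι F) : Matrix ι ι F) * G = G * ((T : GL ι F) : Matrix ι ι F) →
      simAut ⇑Q T * simAut ⇑Q g₀ = simAut ⇑Q g₀ * simAut ⇑Q T := by
    intro T hT
    rw [hxS, ← map_mul, ← map_mul]
    congr 1
    apply Subtype.ext
    apply Units.ext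
    rw [Subgroup.coe_mul, Subgroup.coe_mul, Units.val_mul, Units.val_mul, hgSmat]
    exact hT
  have hT₁c : simAut ⇑Q T₁ * simAut ⇑Q g₀ = simAut ⇑Q g₀ * simAut ⇑Q T₁ :=
    hcomm_of T₁ (by rw [hT₁]; exact hT₁comm)
  have hT₂c : isomAut ⇑Q T₂ * simAut ⇑Q g₀ = simAut ⇑Q g₀ * isomAut ⇑Q T₂ := by
    rw [← simAut_incl]
    exact hcomm_of _ hT₂comm
  -- the centraliser covers `PGO / PO`
  have hcovO : ∀ h ∈ Cfsg.pgoAut F ⇑Q, ∃ cc : MulAut (Cfsg.POmega F ⇑Q),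
      cc * simAut ⇑Q g₀ = simAut ⇑Q g₀ * cc ∧ h * cc ∈ Cfsg.poAut F ⇑Q := by
    intro h hh
    rw [pgoAut_eq_range] at hh
    obtain ⟨s, rfl⟩ := hh
    by_cases hsq : IsSquare (simMult ⇑Q s : F)
    · obtain ⟨s', ν, -, -, -, he⟩ := exists_isom_of_sq Q hQ s hsq
      refine ⟨1, by rw [one_mul, mul_one], ?_⟩
      rw [mul_one, he]
      exact isomAut_mem_poAut ⇑Q s'
    · have hsq' : IsSquare (simMult ⇑Q (s * T₁) : F) := by
        rw [simMult_mul ⇑Q hne, Units.val_mul, hT₁mult]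
        exact isSquare_mul_of_not_isSquare hsq hc
      obtain ⟨s', ν, -, -, -, he⟩ := exists_isom_of_sq Q hQ (s * T₁) hsq'
      refine ⟨simAut ⇑Q T₁, hT₁c, ?_⟩
      rw [← map_mul, he]
      exact isomAut_mem_poAut ⇑Q s'
  -- the centraliser covers `Inndiag / Inn`
  have hcovI : ∀ h ∈ diagAut h2 Q hQ hne k hk, ∃ cc : MulAut (Cfsg.POmega F ⇑Q),
      cc * simAut ⇑Q g₀ = simAut ⇑Q g₀ * cc ∧ h * cc ∈ Cfsg.Inn (Cfsg.POmega F ⇑Q) := by
    intro h hh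
    obtain ⟨s, hs, rfl⟩ := hh
    obtain ⟨s₁, c₁, hs₁mem, hs₁sq, hc₁comm, hc₁eq⟩ :
        ∃ (s₁ : ↥(Cfsg.Geo.quadSimilarityGroup (F := F) ⇑Q)) (c₁ : MulAut (Cfsg.POmega F ⇑Q)),
          s₁ ∈ detKer h2 Q hQ hne k hk ∧ IsSquare (simMult ⇑Q s₁ : F) ∧
          c₁ * simAut ⇑Q g₀ = simAut ⇑Q g₀ * c₁ ∧ simAut ⇑Q s * c₁ = simAut ⇑Q s₁ := by
      by_cases hsq : IsSquare (simMult ⇑Q s : F)
      · exact ⟨s, 1, hs, hsq, by rw [one_mul, mul_one], mul_one _⟩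
      · refine ⟨s * T₁, simAut ⇑Q T₁, Subgroup.mul_mem _ hs hT₁mem, ?_, hT₁c,
          (map_mul _ _ _).symm⟩
        rw [simMult_mul ⇑Q hne, Units.val_mul, hT₁mult]
        exact isSquare_mul_of_not_isSquare hsq hc
    obtain ⟨s', ν, hν0, hν2, hmat, he⟩ := exists_isom_of_sq Q hQ s₁ hs₁sq
    have hdet' : ((s' : GL ι F) : Matrix ι ι F).det = 1 := by
      have h1 := (mem_detKer_iff h2 Q hQ hne k hk s₁).mp hs₁mem
      rw [hmat, Matrix.det_smul, hk, ← hν2, ← pow_mul] at h1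
      have h3 : ν ^ (2 * k) ≠ 0 := pow_ne_zero _ hν0
      have h4 : ν ^ (2 * k) * (((s' : GL ι F) : Matrix ι ι F).det - 1) = 0 := by
        linear_combination h1
      rcases mul_eq_zero.mp h4 with h5 | h5
      · exact absurd h5 h3
      · exact sub_eq_zero.mp h5
    obtain ⟨l', hl', hs'⟩ := exists_eq_prodElt h2 Q hQ s'
    have hs'mat : ((s' : GL ι F) : Matrix ι ι F) =
        (l'.map (Cfsg.reflectionMatrix ⇑Q)).prod := by
      rw [hs']
      rfl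
    have hl'ev : Even l'.length := by
      rw [hs'mat, det_prod_reflectionMatrix Q l' hl'] at hdet'
      by_contra hodd
      rw [Nat.not_even_iff_odd] at hodd
      rw [hodd.neg_one_pow] at hdet'
      exact h2 (by linear_combination -hdet')
    by_cases hsq' : IsSquare (l'.map Q).prod
    · refine ⟨c₁, hc₁comm, ?_⟩
      rw [hc₁eq, he, inn_eq_map]
      refine ⟨s', ?_, rfl⟩
      have hmem : prodElt Q hQ l' hl' ∈ commutator ↥(Cfsg.isometryGroup F ⇑Q) :=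
        (prodElt_mem_commutator_iff h2 Q hQ l' hl').mpr ⟨hl'ev, hsq'⟩
      rw [← hs'] at hmem
      exact hmem
    · refine ⟨c₁ * isomAut ⇑Q T₂, ?_, ?_⟩
      · rw [mul_assoc, hT₂c, ← mul_assoc, hc₁comm, mul_assoc]
      · rw [← mul_assoc, hc₁eq, he, ← map_mul, inn_eq_map]
        refine ⟨s' * T₂, ?_, rfl⟩
        have hll : ∀ u ∈ l' ++ l, Q u ≠ 0 := by
          intro u hu
          rcases List.mem_append.mp hu with h | h
          · exact hl' u h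
          · exact hl u h
        have hprod : s' * T₂ = prodElt Q hQ (l' ++ l) hll := by
          apply eq_prodElt
          rw [Subgroup.coe_mul, Units.val_mul, hs'mat, hT₂mat, List.map_append, List.prod_append]
        have hmem : prodElt Q hQ (l' ++ l) hll ∈ commutator ↥(Cfsg.isometryGroup F ⇑Q) := by
          apply (prodElt_mem_commutator_iff h2 Q hQ _ _).mpr
          refine ⟨?_, ?_⟩
          · rw [List.length_append]
            exact hl'ev.add hlev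
          · rw [List.map_append, List.prod_append]
            exact isSquare_mul_of_not_isSquare hsq' hlsq
        rw [← hprod] at hmem
        exact hmem
  have hIle : Cfsg.Inn (Cfsg.POmega F ⇑Q) ≤ diagAut h2 Q hQ hne k hk :=
    inn_le_diagAut h2 Q hQ hne k hk
  refine ⟨fun y => ⟨conj_iff_of_cover _ _ hIle _ hcovI y, ?_⟩,
    fun y => conj_iff_of_cover _ _ (poAut_le_pgoAut ⇑Q) _ hcovO y⟩
  constructor
  · rintro ⟨h, hh, e⟩
    exact ⟨h, psoAut_le_diagAut h2 Q hQ hne k hk hh, e⟩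
  · intro hDc
    obtain ⟨h, hh, e⟩ := (conj_iff_of_cover _ _ hIle _ hcovI y).mpr hDc
    exact ⟨h, inn_le_psoAut ⇑Q hh, e⟩

end main

end Cfsg.Agent.Lib.Helper8.OFus
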