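import Mathlib
import Cfsg.Prelude.Def_LieTypeDatum
import Cfsg.Agent.Lib.Helper8.OFus.Asm
import Cfsg.Agent.Lib.Helper44.PlusInnDiag
import Cfsg.Agent.Lib.Helper44.MinusInnDiag

/-!
# Class fusion of semisimple elements of odd prime order: the plus and minus instances
-/

set_option autoImplicit false

namespace Cfsg.Agent.Lib.Helper8.OFus

open Matrix Module Subgroup
open Cfsg.Agent.Lib.Helper14 Cfsg.Agent.Lib.Helper44

universe u

theorem two_ne_zero_of_char {F : Type u} [Field F] {p : ℕ} [Fact p.Prime] [CharP F p]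
    (hp : p ≠ 2) : (2 : F) ≠ 0 := by
  intro h
  have h1 : ((2 : ℕ) : F) = 0 := by exact_mod_cast h
  have h3 := (CharP.cast_eq_zero_iff F p 2).mp h1
  exact hp ((Nat.prime_dvd_prime_iff_eq Fact.out Nat.prime_two).mp h3)

theorem prime_ne_zero_of_char {F : Type u} [Field F] {p : ℕ} [Fact p.Prime] [CharP F p]
    {r : ℕ} (hr : r.Prime) (hrp : r ≠ p) : (r : F) ≠ 0 := by
  intro h
  have h3 := (CharP.cast_eq_zero_iff F p r).mp h
  exact hrp ((Nat.prime_dvd_prime_iff_eq Fact.out hr).mp h3).symm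

theorem fusion_plus (hM : PkgM.{u}) (hS : PkgS.{u}) {F : Type u} [Field F] [Fintype F] {p : ℕ}
    [Fact p.Prime] [CharP F p] (hp : p ≠ 2) {m : ℕ} (hm : 4 ≤ m)
    (x : MulAut (Cfsg.POmega F (Cfsg.quadFormPlus m F)))
    (hx : x ∈ Cfsg.pgoAut F (Cfsg.quadFormPlus m F)) {r : ℕ} (hr : r.Prime) (hro : Odd r)
    (hrp : r ≠ p) (hxr : orderOf x = r) :
    (∀ y : MulAut (Cfsg.POmega F (Cfsg.quadFormPlus m F)),
      (Cfsg.IsConjUnder (Cfsg.Inn (Cfsg.POmega F (Cfsg.quadFormPlus m F))) x y ↔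
        Cfsg.IsConjUnder (Cfsg.inndiagPOmegaPlus m F) x y) ∧
      (Cfsg.IsConjUnder (Cfsg.psoAut F (Cfsg.quadFormPlus m F)) x y ↔
        Cfsg.IsConjUnder (Cfsg.inndiagPOmegaPlus m F) x y)) ∧
    (∀ y : MulAut (Cfsg.POmega F (Cfsg.quadFormPlus m F)),
      Cfsg.IsConjUnder (Cfsg.poAut F (Cfsg.quadFormPlus m F)) x y ↔
        Cfsg.IsConjUnder (Cfsg.pgoAut F (Cfsg.quadFormPlus m F)) x y) := by
  have h2 : (2 : F) ≠ 0 := two_ne_zero_of_char hp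
  have hrF : (r : F) ≠ 0 := prime_ne_zero_of_char hr hrp
  obtain ⟨E, hE, hE0⟩ := plus_ts_three (F := F) m (by omega)
  obtain ⟨c, hc⟩ := exists_not_isSquare h2
  have hP : ∀ (g : GL (Fin m ⊕ Fin m) F) (c : F), c ≠ 0 →
      (∀ x, Cfsg.quadFormPlus m F ((g : Matrix (Fin m ⊕ Fin m) (Fin m ⊕ Fin m) F) *ᵥ x) =
        c * Cfsg.quadFormPlus m F x) →
      (Cfsg.PreservesSingularClasses (Cfsg.quadFormPlus m F)
          (g : Matrix (Fin m ⊕ Fin m) (Fin m ⊕ Fin m) F) ↔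
        (g : Matrix (Fin m ⊕ Fin m) (Fin m ⊕ Fin m) F).det = c ^ m) := by
    intro g c hc hg
    exact plus_preserves_iff h2 _ c hc ((Matrix.isUnit_iff_isUnit_det _).mp (Units.isUnit g)) hg
  exact fusion_generic hM hS h2 (plusQF m F) (plusQF_nondegenerate m F) _ (plusQF_coe m F)
    E hE hE0 m (plus_card m) (Cfsg.PreservesSingularClasses (Cfsg.quadFormPlus m F)) hP
    (Cfsg.inndiagPOmegaPlus m F) rfl
    (Matrix.diagonal (Sum.elim (fun _ : Fin m => c) (fun _ : Fin m => (1 : F)))) c hc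
    (plus_diag_sim m c) x hx hr hro hrF hxr

theorem fusion_minus (hM : PkgM.{u}) (hS : PkgS.{u}) {F : Type u} [Field F] [Fintype F] {p : ℕ}
    [Fact p.Prime] [CharP F p] (hp : p ≠ 2) {m : ℕ} (hm : 3 ≤ m) (a b : F)
    (hab : ∀ z₁ z₂ : F, z₁ ^ 2 + a * z₁ * z₂ + b * z₂ ^ 2 = 0 → z₁ = 0 ∧ z₂ = 0)
    (x : MulAut (Cfsg.POmega F (Cfsg.quadFormMinus m F a b)))
    (hx : x ∈ Cfsg.pgoAut F (Cfsg.quadFormMinus m F a b)) {r : ℕ} (hr : r.Prime) (hro : Odd r)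
    (hrp : r ≠ p) (hxr : orderOf x = r) :
    (∀ y : MulAut (Cfsg.POmega F (Cfsg.quadFormMinus m F a b)),
      (Cfsg.IsConjUnder (Cfsg.Inn (Cfsg.POmega F (Cfsg.quadFormMinus m F a b))) x y ↔
        Cfsg.IsConjUnder (Cfsg.inndiagPOmegaMinus m F a b) x y) ∧
      (Cfsg.IsConjUnder (Cfsg.psoAut F (Cfsg.quadFormMinus m F a b)) x y ↔
        Cfsg.IsConjUnder (Cfsg.inndiagPOmegaMinus m F a b) x y)) ∧
    (∀ y : MulAut (Cfsg.POmega F (Cfsg.quadFormMinus m F a b)),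
      Cfsg.IsConjUnder (Cfsg.poAut F (Cfsg.quadFormMinus m F a b)) x y ↔
        Cfsg.IsConjUnder (Cfsg.pgoAut F (Cfsg.quadFormMinus m F a b)) x y) := by
  have h2 : (2 : F) ≠ 0 := two_ne_zero_of_char hp
  have hrF : (r : F) ≠ 0 := prime_ne_zero_of_char hr hrp
  obtain ⟨E, hE, hE0⟩ := minus_ts_three (F := F) m hm a b
  obtain ⟨w, c, hc, hw⟩ := exists_norm_not_isSquare h2 a b hab
  have hP : ∀ (g : GL ((Fin m ⊕ Fin m) ⊕ Fin 2) F) (c : F), c ≠ 0 →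
      (∀ x, Cfsg.quadFormMinus m F a b
        ((g : Matrix ((Fin m ⊕ Fin m) ⊕ Fin 2) ((Fin m ⊕ Fin m) ⊕ Fin 2) F) *ᵥ x) =
        c * Cfsg.quadFormMinus m F a b x) →
      (Cfsg.PreservesSingularClassesMinus m a b
          (g : Matrix ((Fin m ⊕ Fin m) ⊕ Fin 2) ((Fin m ⊕ Fin m) ⊕ Fin 2) F) ↔
        (g : Matrix ((Fin m ⊕ Fin m) ⊕ Fin 2) ((Fin m ⊕ Fin m) ⊕ Fin 2) F).det = c ^ (m + 1)) := by
    intro g c hc hg
    exact minus_preserves_iff h2 m a b hab _ c hc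
      ((Matrix.isUnit_iff_isUnit_det _).mp (Units.isUnit g)) hg
  exact fusion_generic hM hS h2 (minusQF m F a b) (minusQF_nondegenerate m F h2 a b hab) _
    (minusQF_coe m F a b) E hE hE0 (m + 1) (minus_card m)
    (Cfsg.PreservesSingularClassesMinus m a b) hP
    (Cfsg.inndiagPOmegaMinus m F a b) rfl (minusSimMat m a b c w) c hc
    (minusSimMat_quad m a b c w hw) x hx hr hro hrF hxr

end Cfsg.Agent.Lib.Helper8.OFus
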