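import Cfsg.Agent.Lib.Helper8.OFus.Inst
import Cfsg.Agent.Lib.Helper43.OFus.Det0
import Cfsg.Agent.Lib.Helper29.OFus.M
import Cfsg.Agent.Lib.Helper72.OFus.Norm
import Cfsg.Agent.Lib.Helper76.OFus.Spin
import Cfsg.Agent.Lib.Helper64.OFus.Sd
import Cfsg.Agent.Lib.Helper90.OFus.Hyp
import Cfsg.Agent.Lib.Helper11.OFus.Glue

/-!
# Class fusion of semisimple elements of odd order in orthogonal groups: the assembly

The packages of the team project (DET0 by helper43, M by helper29, NORM by helper72, SPIN by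
helper76, SD by helper64, HYP by helper90, GLUE by helper11) put together.
-/

set_option autoImplicit false

namespace Cfsg.Agent.Lib.Helper8.OFus

universe u

/-- Package M, proved. -/
theorem pkgM : PkgM.{u} :=
  Cfsg.Agent.Lib.Helper29.OFus.pkgM_of_det0 Cfsg.Agent.Lib.Helper43.OFus.pkgDet0

/-- Package S, proved. -/
theorem pkgS : PkgS.{u} :=
  Cfsg.Agent.Lib.Helper11.OFus.pkgS_of
    (Cfsg.Agent.Lib.Helper64.OFus.pkgSd Cfsg.Agent.Lib.Helper72.OFus.pkgNorm
      Cfsg.Agent.Lib.Helper76.OFus.pkgSpin)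
    (Cfsg.Agent.Lib.Helper90.OFus.pkgHyp Cfsg.Agent.Lib.Helper72.OFus.pkgNorm
      Cfsg.Agent.Lib.Helper76.OFus.pkgSpin)

end Cfsg.Agent.Lib.Helper8.OFus
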